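import Cfsg.Agent.J2.Orders
import Cfsg.Agent.J2Hundred.Data

/-!
`J₂` as a simple permutation group on 100 points.
-/

set_option autoImplicit false
set_option maxRecDepth 100000

namespace CfsgLib.J2Hundred

open CfsgLib.J2

/-- Membership of a line in a subset. -/
def mem (i : Fin 100) (x : Fin 315) : Bool := (masks.getD i.val 0).testBit x.val

/-- The image of a subset under a generator. -/
def img (k : Fin 4) (i : Fin 100) : Fin 100 := Fin.ofNat 100 ((imgs.getD k.val []).getD i.val 0)

theorem img_spec : ∀ k : Fin 4, ((List.range 100).all fun i => (List.range 315).all fun x =>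
    (masks.getD i 0).testBit x ==
      (masks.getD ((imgs.getD k.val []).getD i 0) 0).testBit (genT k.val x)) = true := by
  decide +kernel

theorem img_lt : ((List.range 4).all fun k => (List.range 100).all fun i =>
    decide ((imgs.getD k []).getD i 0 < 100)) = true := by decide +kernel

theorem img_injective (k : Fin 4) : Function.Injective (img k) := by
  revert k
  unfold Function.Injective
  decide +kernel

theorem masks_lt : (masks.all fun m => decide (m < 2 ^ 315)) = true := by decide +kernel

theorem masks_inj : ∀ i j : Fin 100, masks.getD i.val 0 = masks.getD j.val 0 → i = j := by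
  decide +kernel

theorem mem_inj {i j : Fin 100} (h : ∀ x, mem i x = mem j x) : i = j := by
  apply masks_inj
  have hl := List.all_eq_true.1 masks_lt
  have hb : ∀ i : Fin 100, masks.getD i.val 0 < 2 ^ 315 := fun i => by
    have hi : i.val < masks.length := i.2
    rw [List.getD_eq_getElem _ _ hi]
    exact of_decide_eq_true (hl _ (List.getElem_mem hi))
  refine Nat.eq_of_testBit_eq fun x => ?_
  by_cases hx : x < 315
  · exact h ⟨x, hx⟩
  · have hp : 2 ^ 315 ≤ 2 ^ x := Nat.pow_le_pow_right (by norm_num) (not_lt.1 hx)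
    rw [Nat.testBit_lt_two_pow ((hb i).trans_le hp), Nat.testBit_lt_two_pow ((hb j).trans_le hp)]

/-- The permutations permuting the subsets. -/
def Sym : Subgroup (Equiv.Perm (Fin 315)) where
  carrier := {g | ∃ π : Equiv.Perm (Fin 100), ∀ i x, mem (π i) (g x) = mem i x}
  one_mem' := ⟨1, fun i x => rfl⟩
  mul_mem' := by
    rintro a b ⟨π, ha⟩ ⟨ρ, hb⟩
    exact ⟨π * ρ, fun i x => (ha (ρ i) (b x)).trans (hb i x)⟩
  inv_mem' := by
    rintro a ⟨π, ha⟩
    refine ⟨π⁻¹, fun i x => ?_⟩
    have := ha (π⁻¹ i) (a⁻¹ x)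
    simp only [Equiv.Perm.coe_inv, Equiv.apply_symm_apply] at this
    simpa only [Equiv.Perm.coe_inv] using this.symm

theorem le_Sym : G315 ≤ Sym := by
  rw [G315_eq, Subgroup.closure_le]
  rintro _ ⟨k, rfl⟩
  refine ⟨Equiv.ofBijective _ ((img_injective k).bijective_of_finite), fun i x => ?_⟩
  rw [phi_genJ]
  have h1 := List.all_eq_true.1 (List.all_eq_true.1 (img_spec k) i.val (List.mem_range.2 i.2))
    x.val (List.mem_range.2 x.2)
  have h2 := of_decide_eq_true (List.all_eq_true.1 (List.all_eq_true.1 img_lt k.val (List.mem_range.2 k.2))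
    i.val (List.mem_range.2 i.2))
  rw [beq_iff_eq] at h1
  show (masks.getD (img k i).val 0).testBit _ = _
  rw [show (img k i).val = (imgs.getD k.val []).getD i.val 0 from Nat.mod_eq_of_lt h2]
  exact h1.symm

/-- The action on the 100 subsets. -/
noncomputable def rho : G315 →* Equiv.Perm (Fin 100) :=
  MonoidHom.mk' (fun g => (le_Sym g.2).choose) fun g h => by
    refine Equiv.ext fun i => mem_inj fun x => ?_
    obtain ⟨y, rfl⟩ := ((g * h : G315) : Equiv.Perm (Fin 315)).surjective x
    rw [(le_Sym (g * h).2).choose_spec i y]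
    show _ = mem ((le_Sym g.2).choose ((le_Sym h.2).choose i))
      ((g : Equiv.Perm (Fin 315)) ((h : Equiv.Perm (Fin 315)) y))
    rw [(le_Sym g.2).choose_spec, (le_Sym h.2).choose_spec]

theorem rho_spec (g : G315) (i : Fin 100) (x : Fin 315) :
    mem (rho g i) ((g : Equiv.Perm (Fin 315)) x) = mem i x :=
  (le_Sym g.2).choose_spec i x

theorem exists_move : ∃ k : Fin 4, ∃ i : Fin 100, img k i ≠ i := by decide +kernel

theorem exists_simple :
    ∃ G : Subgroup (Equiv.Perm (Fin 100)), IsSimpleGroup G ∧ Nat.card G = 604800 := by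
  haveI := isSimple_G315
  have hinj : Function.Injective rho := by
    rw [← MonoidHom.ker_eq_bot_iff]
    refine (rho.normal_ker.eq_bot_or_eq_top).resolve_right fun ht => ?_
    obtain ⟨k, i, hk⟩ := exists_move
    have hmem : phi (genJ k) ∈ G315 := ⟨genJ k, rfl⟩
    have h1 : rho ⟨_, hmem⟩ = 1 := MonoidHom.mem_ker.1 (ht ▸ Subgroup.mem_top _)
    apply hk
    refine mem_inj fun y => ?_
    obtain ⟨x, rfl⟩ := (phi (genJ k)).surjective y
    have h2 := rho_spec ⟨_, hmem⟩ i x
    rw [h1, Equiv.Perm.one_apply] at h2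
    rw [h2]
    have h3 := List.all_eq_true.1 (List.all_eq_true.1 (img_spec k) i.val (List.mem_range.2 i.2))
      x.val (List.mem_range.2 x.2)
    have h4 := of_decide_eq_true (List.all_eq_true.1 (List.all_eq_true.1 img_lt k.val (List.mem_range.2 k.2))
      i.val (List.mem_range.2 i.2))
    rw [beq_iff_eq] at h3
    rw [phi_genJ]
    show (masks.getD (img k i).val 0).testBit _ = _
    rw [show (img k i).val = (imgs.getD k.val []).getD i.val 0 from Nat.mod_eq_of_lt h4]
    exact h3.symm
  refine ⟨rho.range, ?_, ?_⟩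
  · exact (MonoidHom.ofInjective hinj).symm.isSimpleGroup
  · rw [Nat.card_congr (MonoidHom.ofInjective hinj).toEquiv.symm]
    exact card_G315

end CfsgLib.J2Hundred
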