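import Cfsg.Agent.J2Hundred.Action
import Cfsg.Agent.J2Hundred.U33Data
import Cfsg.Agent.H29.UThreeThree.Main
import Cfsg.Agent.UGeom.Center
import Cfsg.Prelude.Def_Classical

/-!
The stabiliser of a point in the action of `J₂` on 100 points is `PSU(3, 3)`.
-/

set_option autoImplicit false
set_option maxRecDepth 100000
set_option Elab.async false

namespace CfsgLib.J2Hundred.U33

open CfsgLib.J2 CfsgLib.J2Hundred CfsgLib.H29.UThreeThree
open Cfsg.Spor (J2)
open Matrix

/-! ### The action -/

/-- The action of `J₂` on the 100 points. -/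
noncomputable def psi : J2 →* Equiv.Perm (Fin 100) := rho.comp j2Equiv.toMonoidHom

/-- An element as a permutation of the lines. -/
noncomputable def per (g : J2) : Equiv.Perm (Fin 315) := ((j2Equiv g : G315) : Equiv.Perm (Fin 315))

theorem psi_spec (g : J2) (i : Fin 100) (x : Fin 315) : mem (psi g i) (per g x) = mem i x :=
  rho_spec (j2Equiv g) i x

theorem per_mul (g h : J2) (x : Fin 315) : per (g * h) x = per g (per h x) := by
  simp [per]

theorem per_one (x : Fin 315) : per 1 x = x := by simp [per]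

/-- A generator. -/
noncomputable def gj (k : Fin 4) : J2 := j2Equiv.symm ⟨phi (genJ k), genJ k, rfl⟩

theorem per_gj (k : Fin 4) (x : Fin 315) : per (gj k) x = ⟨genT k x, genT_lt k.2 x.2⟩ := by
  rw [per, gj, MulEquiv.apply_symm_apply]
  exact phi_genJ k x

theorem psi_gj (k : Fin 4) (i : Fin 100) : psi (gj k) i = img k i := by
  refine mem_inj fun y => ?_
  obtain ⟨x, rfl⟩ := (per (gj k)).surjective y
  rw [psi_spec]
  have h1 := List.all_eq_true.1 (List.all_eq_true.1 (img_spec k) i.val (List.mem_range.2 i.2))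
    x.val (List.mem_range.2 x.2)
  have h2 := of_decide_eq_true (List.all_eq_true.1 (List.all_eq_true.1 img_lt k.val (List.mem_range.2 k.2))
    i.val (List.mem_range.2 i.2))
  rw [beq_iff_eq] at h1
  rw [per_gj]
  show _ = (masks.getD (img k i).val 0).testBit _
  rw [show (img k i).val = (imgs.getD k.val []).getD i.val 0 from Nat.mod_eq_of_lt h2]
  exact h1

/-- A word in the generators. -/
noncomputable def word : List (Fin 4) → J2
  | [] => 1
  | k :: w => gj k * word w

/-- Evaluation on a line. -/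
def apL315 : List (Fin 4) → ℕ → ℕ
  | [], x => x
  | k :: w, x => genT k (apL315 w x)

/-- Evaluation on a point. -/
def ap100 : List (Fin 4) → Fin 100 → Fin 100
  | [], i => i
  | k :: w, i => img k (ap100 w i)

theorem per_word : ∀ (w : List (Fin 4)) (x : Fin 315), (per (word w) x).val = apL315 w x.val
  | [], x => by rw [word, per_one]; rfl
  | k :: w, x => by rw [word, per_mul, per_gj, apL315, ← per_word w x]

theorem psi_word : ∀ (w : List (Fin 4)) (i : Fin 100), psi (word w) i = ap100 w i
  | [], i => by rw [word, map_one]; rfl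
  | k :: w, i => by rw [word, map_mul, Equiv.Perm.mul_apply, psi_gj, ap100, psi_word w i]

theorem reps_ok : ∀ i : Fin 100, ap100 (reps.getD i.val []) 0 = i := by decide +kernel

/-- The stabiliser of the first point. -/
noncomputable def Hpt : Subgroup J2 := (MulAction.stabilizer (Equiv.Perm (Fin 100)) (0 : Fin 100)).comap psi

theorem mem_Hpt {g : J2} : g ∈ Hpt ↔ psi g 0 = 0 := Iff.rfl

/-- The map of cosets to points. -/
noncomputable def cosetPt : J2 ⧸ Hpt → Fin 100 := Quotient.lift (fun g : J2 => psi g 0) (by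
  intro a b hab
  have h := mem_Hpt.1 ((QuotientGroup.leftRel_apply).1 hab)
  rw [map_mul, map_inv, Equiv.Perm.mul_apply, Equiv.Perm.inv_eq_iff_eq] at h
  exact h.symm)

theorem cosetPt_mk (g : J2) : cosetPt (QuotientGroup.mk g) = psi g 0 := rfl

theorem cosetPt_bijective : Function.Bijective cosetPt := by
  constructor
  · intro x y
    induction x using QuotientGroup.induction_on with | H a => ?_
    induction y using QuotientGroup.induction_on with | H b => ?_
    intro h
    rw [cosetPt_mk, cosetPt_mk] at h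
    refine QuotientGroup.eq.2 (mem_Hpt.2 ?_)
    rw [map_mul, map_inv, Equiv.Perm.mul_apply, Equiv.Perm.inv_eq_iff_eq, h]
  · intro i
    exact ⟨QuotientGroup.mk (word (reps.getD i.val [])), by rw [cosetPt_mk, psi_word, reps_ok]⟩

theorem index_Hpt : Hpt.index = 100 := by
  rw [Subgroup.index, Nat.card_eq_of_bijective _ cosetPt_bijective, Nat.card_fin]

theorem card_Hpt : Nat.card Hpt = 6048 := by
  have := Hpt.card_mul_index
  rw [index_Hpt, card_J2] at this
  omega

theorem cosetPt_smul (h : J2) (c : J2 ⧸ Hpt) : cosetPt (h • c) = psi h (cosetPt c) := by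
  induction c using QuotientGroup.induction_on with | H a => ?_
  show cosetPt (QuotientGroup.mk (h * a)) = _
  rw [cosetPt_mk, cosetPt_mk, map_mul, Equiv.Perm.mul_apply]

/-! ### The two orbits -/

theorem stab_words_ok : ap100 wordA 0 = 0 ∧ ap100 wordB 0 = 0 := by decide +kernel

/-- A word in the two generators of the stabiliser. -/
noncomputable def hword : List Bool → J2
  | [] => 1
  | t :: w => (if t then word wordB else word wordA) * hword w

/-- Evaluation on a point. -/
def hap : List Bool → Fin 100 → Fin 100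
  | [], i => i
  | t :: w, i => ap100 (if t then wordB else wordA) (hap w i)

theorem hword_mem : ∀ w : List Bool, hword w ∈ Hpt
  | [] => Hpt.one_mem
  | t :: w => mul_mem (by
      cases t
      · exact mem_Hpt.2 (by rw [if_neg Bool.false_ne_true, psi_word]; exact stab_words_ok.1)
      · exact mem_Hpt.2 (by rw [if_pos rfl, psi_word]; exact stab_words_ok.2)) (hword_mem w)

theorem psi_hword : ∀ (w : List Bool) (i : Fin 100), psi (hword w) i = hap w i
  | [], i => by rw [hword, map_one]; rfl
  | t :: w, i => by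
    rw [hword, map_mul, Equiv.Perm.mul_apply, hap, psi_hword w i]
    cases t <;> exact psi_word _ _

/-- The number of common lines with the first subset. -/
def inter (i : Fin 100) : ℕ := ((List.range 315).filter fun x =>
  (masks.getD 0 0).testBit x && (masks.getD i.val 0).testBit x).length

theorem inter_eq (i : Fin 100) : inter i = (Finset.univ.filter fun x : Fin 315 =>
    mem 0 x = true ∧ mem i x = true).card := by
  have : ∀ j : Fin 100, inter j = (Finset.univ.filter fun x : Fin 315 =>
      ((masks.getD 0 0).testBit x.val && (masks.getD j.val 0).testBit x.val) = true).card := by decide +kernel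
  rw [this i]
  congr 1
  ext x
  simp [mem]

theorem inter_inv {h : J2} (hh : h ∈ Hpt) (i : Fin 100) : inter (psi h i) = inter i := by
  rw [inter_eq, inter_eq]
  refine (Finset.card_bij (fun x _ => per h x) ?_ ?_ ?_).symm
  · intro x hx
    simp only [Finset.mem_filter, Finset.mem_univ, true_and] at hx ⊢
    have h0 := psi_spec h 0 x
    rw [mem_Hpt.1 hh] at h0
    exact ⟨h0.trans hx.1, (psi_spec h i x).trans hx.2⟩
  · exact fun x _ y _ e => (per h).injective e
  · intro y hy
    obtain ⟨x, rfl⟩ := (per h).surjective y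
    simp only [Finset.mem_filter, Finset.mem_univ, true_and] at hy ⊢
    have h0 := psi_spec h 0 x
    rw [mem_Hpt.1 hh] at h0
    exact ⟨x, ⟨h0.symm.trans hy.1, (psi_spec h i x).symm.trans hy.2⟩, rfl⟩

theorem orbit_ncard {s : Fin 100} {L : List ℕ} {W : List (List Bool)} {n : ℕ}
    (hinv : ∀ i : Fin 100, inter i = inter s → i.val ∈ L) (hlen : L.length = n) (hnd : L.Nodup)
    (hlt : ∀ x ∈ L, x < 100) (hW : ∀ k, k < n → (hap (W.getD k []) s).val = L.getD k 0) :
    (MulAction.orbit Hpt (QuotientGroup.mk (word (reps.getD s.val [])) : J2 ⧸ Hpt)).ncard = n := by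
  set c : J2 ⧸ Hpt := QuotientGroup.mk (word (reps.getD s.val []))
  have hc : cosetPt c = s := by rw [cosetPt_mk, psi_word, reps_ok]
  have himg : (fun x => (cosetPt x).val) '' MulAction.orbit Hpt c = {x | x ∈ L} := by
    ext x
    constructor
    · rintro ⟨_, ⟨h, rfl⟩, rfl⟩
      refine hinv _ ?_
      show inter (cosetPt ((h : J2) • c)) = _
      rw [cosetPt_smul, inter_inv h.2, hc]
    · intro hx
      obtain ⟨k, hk, rfl⟩ := List.getElem_of_mem hx
      refine ⟨_, ⟨⟨hword (W.getD k []), hword_mem _⟩, rfl⟩, ?_⟩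
      show (cosetPt ((hword (W.getD k []) : J2) • c)).val = _
      rw [cosetPt_smul, hc, psi_hword, hW k (hlen ▸ hk), List.getD_eq_getElem _ _ hk]
  rw [← Set.ncard_image_of_injective _ (Fin.val_injective.comp cosetPt_bijective.1)]
  show ((fun x => (cosetPt x).val) '' MulAction.orbit Hpt c).ncard = n
  rw [himg, show {x | x ∈ L} = (L.toFinset : Set ℕ) by ext; simp, Set.ncard_coe_finset,
    List.toFinset_card_of_nodup hnd, hlen]

theorem orbit_checks :
    (∀ i : Fin 100, inter i = inter (Fin.ofNat 100 start36) → i.val ∈ pts36) ∧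
    (∀ i : Fin 100, inter i = inter (Fin.ofNat 100 start63) → i.val ∈ pts63) ∧
    pts36.length = 36 ∧ pts63.length = 63 ∧ pts36.Nodup ∧ pts63.Nodup ∧
    (∀ x ∈ pts36, x < 100) ∧ (∀ x ∈ pts63, x < 100) ∧
    (∀ k, k < 36 → (hap (orb36.getD k []) (Fin.ofNat 100 start36)).val = pts36.getD k 0) ∧
    (∀ k, k < 63 → (hap (orb63.getD k []) (Fin.ofNat 100 start63)).val = pts63.getD k 0) := by
  decide +kernel

theorem suborbits : ∃ c₁ c₂ : J2 ⧸ Hpt, (MulAction.orbit Hpt c₁).ncard = 36 ∧
    (MulAction.orbit Hpt c₂).ncard = 63 := by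
  obtain ⟨a1, a2, a3, a4, a5, a6, a7, a8, a9, a10⟩ := orbit_checks
  exact ⟨_, _, orbit_ncard a1 a3 a5 a7 a9, orbit_ncard a2 a4 a6 a8 a10⟩

/-! ### Sixty-three lines -/

/-- The line with index `k`. -/
def ln (k : Fin 63) : Fin 315 := Fin.ofNat 315 (lines.getD k.val 0)

theorem ln_inj : ∀ i j : Fin 63, ln i = ln j → i = j := by decide +kernel

theorem ln_mem : ∀ k : Fin 63, mem 0 (ln k) = true := by decide +kernel

theorem ln_surj : ∀ x : Fin 315, mem 0 x = true → ∃ k : Fin 63, ln k = x := by decide +kernel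

theorem exists_pos (h : Hpt) (k : Fin 63) : ∃ k', ln k' = per h (ln k) := by
  refine ln_surj _ ?_
  have h0 := psi_spec h 0 (ln k)
  rw [mem_Hpt.1 h.2] at h0
  rw [h0]
  exact ln_mem k

/-- The action of the stabiliser on the lines. -/
noncomputable def sigH : Hpt →* Equiv.Perm (Fin 63) :=
  MonoidHom.toHomPerm
    { toFun := fun h => (fun k => (exists_pos h k).choose : Function.End (Fin 63))
      map_one' := funext fun k => ln_inj _ _ ((exists_pos 1 k).choose_spec.trans (per_one _))
      map_mul' := fun g h => funext fun k => ln_inj _ _ (by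
        show ln (exists_pos (g * h) k).choose = ln (exists_pos g (exists_pos h k).choose).choose
        rw [(exists_pos _ _).choose_spec, (exists_pos _ _).choose_spec, (exists_pos _ _).choose_spec,
          Subgroup.coe_mul, per_mul]) }

theorem sigH_spec (h : Hpt) (k : Fin 63) : ln (sigH h k) = per h (ln k) := (exists_pos h k).choose_spec

/-- The two permutations. -/
def pTab (t : Bool) : List ℕ := if t then permB else permA

theorem lines_ok : ∀ (t : Bool) (k : Fin 63),
    apL315 (if t then wordB else wordA) (ln k).val = (ln (Fin.ofNat 63 ((pTab t).getD k.val 0))).val := by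
  decide +kernel

/-- A generator of the stabiliser. -/
noncomputable def hgen (t : Bool) : Hpt := ⟨hword [t], hword_mem _⟩

theorem sigH_hgen (t : Bool) (k : Fin 63) : sigH (hgen t) k = Fin.ofNat 63 ((pTab t).getD k.val 0) := by
  refine ln_inj _ _ ?_
  rw [sigH_spec]
  refine Fin.ext ?_
  rw [← lines_ok t k]
  show (per (hword [t]) (ln k)).val = _
  rw [show hword [t] = (if t then word wordB else word wordA) from mul_one _]
  cases t <;> exact per_word _ _

/-! ### The permutation group -/

/-- The group generated by the two permutations. -/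
noncomputable def P : Subgroup (Equiv.Perm (Fin 63)) := Subgroup.closure (Set.range fun t => sigH (hgen t))

/-- Evaluation of a word on the 63 points. -/
def pap : List Bool → Fin 63 → Fin 63
  | [], k => k
  | t :: w, k => Fin.ofNat 63 ((pTab t).getD (pap w k).val 0)

theorem exists_P : ∀ w : List Bool, ∃ p ∈ P, ∀ k, p k = pap w k
  | [] => ⟨1, one_mem _, fun _ => rfl⟩
  | t :: w => by
    obtain ⟨p, hp, e⟩ := exists_P w
    exact ⟨sigH (hgen t) * p, mul_mem (Subgroup.subset_closure ⟨t, rfl⟩) hp, fun k => by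
      rw [Equiv.Perm.mul_apply, sigH_hgen, e, pap]⟩

theorem perm_checks : (∀ i : Fin 63, pap (orbWords.getD i.val []) 0 = i) ∧
    (∀ m : Fin 96, pap (stabWords.getD m.val []) 0 = 0) ∧
    (∀ m n : Fin 96, (∀ x ∈ base, pap (stabWords.getD m.val []) (Fin.ofNat 63 x) =
      pap (stabWords.getD n.val []) (Fin.ofNat 63 x)) → m = n) := by decide +kernel

theorem card_P_ge : 6048 ≤ Nat.card P := by
  obtain ⟨h1, h2, h3⟩ := perm_checks
  let t : Fin 63 → P := fun i => ⟨_, (exists_P (orbWords.getD i.val [])).choose_spec.1⟩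
  let s : Fin 96 → P := fun m => ⟨_, (exists_P (stabWords.getD m.val [])).choose_spec.1⟩
  have ht : ∀ (i : Fin 63) (k : Fin 63), (t i : Equiv.Perm (Fin 63)) k = pap (orbWords.getD i.val []) k :=
    fun i => (exists_P _).choose_spec.2
  have hs : ∀ (m : Fin 96) (k : Fin 63), (s m : Equiv.Perm (Fin 63)) k = pap (stabWords.getD m.val []) k :=
    fun m => (exists_P _).choose_spec.2
  have hinj : Function.Injective fun e : Fin 63 × Fin 96 => t e.1 * s e.2 := by
    intro e e' h
    have h0 := congrArg (fun p : P => (p : Equiv.Perm (Fin 63)) 0) h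
    simp only [Subgroup.coe_mul, Equiv.Perm.mul_apply, hs, h2, ht, h1] at h0
    simp only [h0] at h
    refine Prod.ext h0 (h3 _ _ fun x _ => ?_)
    rw [← hs, ← hs, mul_left_cancel h]
  have := Nat.card_le_card_of_injective _ hinj
  rwa [Nat.card_prod, Nat.card_fin, Nat.card_fin] at this

theorem sigH_bijective : Function.Injective sigH ∧ sigH.range = P := by
  haveI : Finite Hpt := Nat.finite_of_card_ne_zero (by rw [card_Hpt]; norm_num)
  have hle : P ≤ sigH.range := by
    rw [P, Subgroup.closure_le]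
    rintro _ ⟨t, rfl⟩
    exact ⟨_, rfl⟩
  have h1 : Nat.card sigH.range ≤ 6048 := card_Hpt ▸ Nat.card_le_card_of_surjective _ sigH.rangeRestrict_surjective
  have heq := Subgroup.eq_of_le_of_card_ge hle (h1.trans card_P_ge)
  refine ⟨?_, heq.symm⟩
  have : Function.Bijective sigH.rangeRestrict := (Nat.bijective_iff_surjective_and_card _).2
    ⟨sigH.rangeRestrict_surjective, le_antisymm (by rw [card_Hpt, ← heq]; exact card_P_ge)
      (Nat.card_le_card_of_surjective _ sigH.rangeRestrict_surjective)⟩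
  exact fun a b h => this.1 (Subtype.ext h)

/-! ### The unitary group -/

set_option synthInstance.maxSize 4096 in
set_option synthInstance.maxHeartbeats 400000 in
theorem point_checks : (∀ i : Fin 63, hcol (points.getD i.val ((0, 0), (0, 0), (0, 0))).1
      (points.getD i.val ((0, 0), (0, 0), (0, 0))).2.1 (points.getD i.val ((0, 0), (0, 0), (0, 0))).2.2
      (points.getD i.val ((0, 0), (0, 0), (0, 0))).1 (points.getD i.val ((0, 0), (0, 0), (0, 0))).2.1
      (points.getD i.val ((0, 0), (0, 0), (0, 0))).2.2 ≠ (0, 0)) ∧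
    (∀ a b c : K9, hcol a b c a b c ≠ (0, 0) → ∃ i : Fin 63, ∃ l : K9,
      k9mul l (points.getD i.val ((0, 0), (0, 0), (0, 0))).1 = a ∧
      k9mul l (points.getD i.val ((0, 0), (0, 0), (0, 0))).2.1 = b ∧
      k9mul l (points.getD i.val ((0, 0), (0, 0), (0, 0))).2.2 = c) ∧
    (∀ i j : Fin 63, ∀ l : K9,
      k9mul l (points.getD i.val ((0, 0), (0, 0), (0, 0))).1 = (points.getD j.val ((0, 0), (0, 0), (0, 0))).1 →
      k9mul l (points.getD i.val ((0, 0), (0, 0), (0, 0))).2.1 = (points.getD j.val ((0, 0), (0, 0), (0, 0))).2.1 →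
      k9mul l (points.getD i.val ((0, 0), (0, 0), (0, 0))).2.2 = (points.getD j.val ((0, 0), (0, 0), (0, 0))).2.2 →
      i = j) := by decide +kernel

/-- The product of a matrix and a vector. -/
def mvec (A : M9) (v : K9 × K9 × K9) : K9 × K9 × K9 :=
  (dot A.a A.b A.c v.1 v.2.1 v.2.2, dot A.d A.e A.f v.1 v.2.1 v.2.2, dot A.g A.h A.i v.1 v.2.1 v.2.2)

/-- A multiple of a vector. -/
def svec (l : K9) (v : K9 × K9 × K9) : K9 × K9 × K9 := (k9mul l v.1, k9mul l v.2.1, k9mul l v.2.2)

/-- The point with index `i`. -/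
def pt (i : Fin 63) : K9 × K9 × K9 := points.getD i.val ((0, 0), (0, 0), (0, 0))

/-- A generator of the unitary group. -/
def mgen (t : Bool) : M9 := if t then matB else matA

theorem mat_checks : (∀ t : Bool, (mgen t).unitary = true ∧ (mgen t).det = (1, 0)) ∧
    (∀ (t : Bool) (i : Fin 63), ∃ l : K9,
      mvec (mgen t) (pt i) = svec l (pt (Fin.ofNat 63 ((pTab t).getD i.val 0)))) := by decide +kernel

section

variable {F : Type*} [Field F] [Fintype F] [CharP F 3] (i0 : F)

/-- A vector over the field. -/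
def evV (v : K9 × K9 × K9) : Fin 3 → F := ![ev i0 v.1, ev i0 v.2.1, ev i0 v.2.2]

theorem herm_evV (hi : i0 * i0 = -1) (v : K9 × K9 × K9) :
    Cfsg.hermForm 3 F 3 (evV i0 v) (evV i0 v) = ev i0 (hcol v.1 v.2.1 v.2.2 v.1 v.2.1 v.2.2) := by
  simp [Cfsg.hermForm, evV, Fin.sum_univ_three, hcol, dot, ev_add, ev_mul i0 hi, ev_conj i0 hi]

theorem evV_svec (hi : i0 * i0 = -1) (l : K9) (v : K9 × K9 × K9) : evV i0 (svec l v) = ev i0 l • evV i0 v := by
  funext j; fin_cases j <;> simp [evV, svec, ev_mul i0 hi]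

theorem evV_mvec (hi : i0 * i0 = -1) (A : M9) (v : K9 × K9 × K9) : A.toM i0 *ᵥ evV i0 v = evV i0 (mvec A v) := by
  funext j; fin_cases j <;>
    simp [evV, mvec, M9.toM, dot, ev_add, ev_mul i0 hi, Matrix.mulVec, dotProduct, Fin.sum_univ_three]

theorem evV_injective (hi : i0 * i0 = -1) : Function.Injective (evV i0) := by
  intro v w h
  have := ev_injective i0 hi
  exact Prod.ext (this (congrFun h 0)) (Prod.ext (this (congrFun h 1)) (this (congrFun h 2)))

theorem ev_surjective (hi : i0 * i0 = -1) (hF : Fintype.card F = 9) : Function.Surjective (ev i0) :=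
  ((Fintype.bijective_iff_injective_and_card _).2 ⟨ev_injective i0 hi, by
    rw [hF, Fintype.card_prod, ZMod.card]⟩).2

theorem evV_surjective (hi : i0 * i0 = -1) (hF : Fintype.card F = 9) : Function.Surjective (evV i0) := by
  intro w
  obtain ⟨a, ha⟩ := ev_surjective i0 hi hF (w 0)
  obtain ⟨b, hb⟩ := ev_surjective i0 hi hF (w 1)
  obtain ⟨c, hc⟩ := ev_surjective i0 hi hF (w 2)
  exact ⟨(a, b, c), funext fun j => by fin_cases j <;> assumption⟩

/-- The matrix of a unitary element. -/
def smat (g : Cfsg.SU 3 F 3) : Matrix (Fin 3) (Fin 3) F := Cfsg.slToMat 3 F g.1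

theorem exists_point (hi : i0 * i0 = -1) (hF : Fintype.card F = 9) (g : Cfsg.SU 3 F 3) (i : Fin 63) :
    ∃ j : Fin 63, ∃ l : F, smat g *ᵥ evV i0 (pt i) = l • evV i0 (pt j) := by
  obtain ⟨v, hv⟩ := evV_surjective i0 hi hF (smat g *ᵥ evV i0 (pt i))
  have hne : hcol v.1 v.2.1 v.2.2 v.1 v.2.1 v.2.2 ≠ (0, 0) := by
    intro h
    have h1 := herm_evV i0 hi v
    rw [hv, h, ev_zero, show smat g = Cfsg.slToMat 3 F g.1 from rfl, g.2, herm_evV i0 hi, ← ev_zero i0] at h1
    exact point_checks.1 i (ev_injective i0 hi h1)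
  obtain ⟨j, l, e1, e2, e3⟩ := point_checks.2.1 _ _ _ hne
  refine ⟨j, ev i0 l, ?_⟩
  rw [← evV_svec i0 hi, ← hv]
  exact congrArg (evV i0) (Prod.ext e1.symm (Prod.ext e2.symm e3.symm))

theorem point_unique (hi : i0 * i0 = -1) (hF : Fintype.card F = 9) {w : Fin 3 → F} (hw : w ≠ 0) {i j : Fin 63}
    {a b : F} (h1 : w = a • evV i0 (pt i)) (h2 : w = b • evV i0 (pt j)) : i = j := by
  have hb : b ≠ 0 := fun h => hw (by rw [h2, h, zero_smul])
  obtain ⟨l, hl⟩ := ev_surjective i0 hi hF (b⁻¹ * a)
  have h : svec l (pt i) = pt j := evV_injective i0 hi (by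
    rw [evV_svec i0 hi, hl, mul_smul, ← h1, h2, inv_smul_smul₀ hb])
  exact point_checks.2.2 i j l (congrArg Prod.fst h) (congrArg (fun v => v.2.1) h) (congrArg (fun v => v.2.2) h)

theorem smat_ne (hi : i0 * i0 = -1) (g : Cfsg.SU 3 F 3) (i : Fin 63) : smat g *ᵥ evV i0 (pt i) ≠ 0 := by
  intro h
  have h1 := g.2 (evV i0 (pt i)) (evV i0 (pt i))
  rw [show Cfsg.slToMat 3 F g.1 = smat g from rfl, h, herm_evV i0 hi] at h1
  refine point_checks.1 i (ev_injective i0 hi ?_)
  show ev i0 _ = ev i0 (0, 0)
  rw [ev_zero, show (points.getD i.val ((0, 0), (0, 0), (0, 0))) = pt i from rfl, ← h1]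
  simp [Cfsg.hermForm]

/-- The action of the unitary group on the nonisotropic points. -/
noncomputable def sigU (hi : i0 * i0 = -1) (hF : Fintype.card F = 9) :
    Cfsg.SU 3 F 3 →* Equiv.Perm (Fin 63) :=
  MonoidHom.toHomPerm
    { toFun := fun g => (fun i => (exists_point i0 hi hF g i).choose : Function.End (Fin 63))
      map_one' := funext fun i => by
        obtain ⟨l, hl⟩ := (exists_point i0 hi hF 1 i).choose_spec
        refine (point_unique i0 hi hF (smat_ne i0 hi 1 i) (a := 1) ?_ hl).symm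
        rw [one_smul, show smat (1 : Cfsg.SU 3 F 3) = 1 from map_one _, Matrix.one_mulVec]
        rfl
      map_mul' := fun g h => funext fun i => by
        obtain ⟨l1, hl1⟩ := (exists_point i0 hi hF h i).choose_spec
        obtain ⟨l2, hl2⟩ := (exists_point i0 hi hF g (exists_point i0 hi hF h i).choose).choose_spec
        obtain ⟨l, hl⟩ := (exists_point i0 hi hF (g * h) i).choose_spec
        refine point_unique i0 hi hF (smat_ne i0 hi (g * h) i) hl (b := l1 * l2) ?_
        rw [show smat (g * h) = smat g * smat h from map_mul _ _ _, ← Matrix.mulVec_mulVec, hl1,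
          Matrix.mulVec_smul, hl2, smul_smul]
        rfl }

/-- A generator as a unitary element. -/
def ugen (hi : i0 * i0 = -1) (t : Bool) : Cfsg.SU 3 F 3 :=
  ⟨⟨(mgen t).toM i0, by rw [toM_det i0 hi, (mat_checks.1 t).2, ev_one]⟩,
    fun u v => toM_preserves i0 hi (mat_checks.1 t).1 u v⟩

theorem sigU_ugen (hi : i0 * i0 = -1) (hF : Fintype.card F = 9) (t : Bool) :
    sigU i0 hi hF (ugen i0 hi t) = sigH (hgen t) := by
  ext i
  rw [sigH_hgen]
  obtain ⟨l, hl⟩ := (exists_point i0 hi hF (ugen i0 hi t) i).choose_spec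
  obtain ⟨l', hl'⟩ := mat_checks.2 t i
  refine congrArg Fin.val ?_
  refine point_unique i0 hi hF (smat_ne i0 hi (ugen i0 hi t) i) hl (b := ev i0 l') ?_
  show (mgen t).toM i0 *ᵥ evV i0 (pt i) = _
  rw [evV_mvec i0 hi, hl', evV_svec i0 hi]

theorem card_SU_three (hF : Fintype.card F = 9) : Nat.card (Cfsg.SU 3 F 3) = 6048 := by
  obtain ⟨C⟩ := CfsgLib.UGeom.nonempty_conj (F := F) (q := 3) (by rw [hF]; norm_num)
  have h := CfsgLib.UGeom.card_SU_mul C (n := 3) (by norm_num)
  rw [CfsgLib.UGeom.card_GU C] at h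
  simp only [Finset.prod_range_succ, Finset.prod_range_zero] at h
  norm_num [Nat.even_iff] at h
  omega

theorem psu_iso (hi : i0 * i0 = -1) (hF : Fintype.card F = 9) : Nonempty (Hpt ≃* Cfsg.PSU 3 F 3) := by
  obtain ⟨C⟩ := CfsgLib.UGeom.nonempty_conj (F := F) (q := 3) (by rw [hF]; norm_num)
  haveI : Finite (Cfsg.SU 3 F 3) := Nat.finite_of_card_ne_zero (by rw [card_SU_three hF]; norm_num)
  set σ := sigU i0 hi hF
  have hle : P ≤ σ.range := by
    rw [P, Subgroup.closure_le]
    rintro _ ⟨t, rfl⟩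
    exact ⟨_, sigU_ugen i0 hi hF t⟩
  have h1 : Nat.card σ.range ≤ 6048 := card_SU_three hF ▸ Nat.card_le_card_of_surjective _ σ.rangeRestrict_surjective
  have heq : P = σ.range := Subgroup.eq_of_le_of_card_ge hle (h1.trans card_P_ge)
  have hbij : Function.Bijective σ.rangeRestrict := (Nat.bijective_iff_surjective_and_card _).2
    ⟨σ.rangeRestrict_surjective, le_antisymm (by rw [card_SU_three hF, ← heq]; exact card_P_ge)
      (Nat.card_le_card_of_surjective _ σ.rangeRestrict_surjective)⟩
  have hz : Subgroup.center (Cfsg.SU 3 F 3) = ⊥ :=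
    Subgroup.card_eq_one.1 (by rw [CfsgLib.UGeom.card_center_SU C (by norm_num)]; norm_num)
  exact ⟨(MonoidHom.ofInjective sigH_bijective.1).trans
    ((MulEquiv.subgroupCongr (sigH_bijective.2.trans heq)).trans
      (((MulEquiv.ofBijective _ hbij).symm).trans
        ((QuotientGroup.quotientBot).symm.trans (QuotientGroup.quotientMulEquivOfEq hz.symm))))⟩

end

theorem exists_subgroup_psu : ∃ H : Subgroup J2, H.index = 100 ∧
    (∃ (F : Type) (_ : Field F) (_ : Fintype F), Fintype.card F = 9 ∧ Nonempty (H ≃* Cfsg.PSU 3 F 3)) ∧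
    ∃ c₁ c₂ : J2 ⧸ H, (MulAction.orbit H c₁).ncard = 36 ∧ (MulAction.orbit H c₂).ncard = 63 := by
  haveI : Fact (Nat.Prime 3) := ⟨Nat.prime_three⟩
  letI : Fintype (GaloisField 3 2) := Fintype.ofFinite _
  have hF : Fintype.card (GaloisField 3 2) = 9 := by
    rw [← Nat.card_eq_fintype_card, GaloisField.card 3 2 (by norm_num)]; norm_num
  obtain ⟨i0, hi⟩ : IsSquare (-1 : GaloisField 3 2) :=
    FiniteField.isSquare_neg_one_iff.mpr (by rw [hF]; norm_num)
  exact ⟨Hpt, index_Hpt, ⟨GaloisField 3 2, inferInstance, inferInstance, hF, psu_iso i0 hi.symm hF⟩, suborbits⟩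

end CfsgLib.J2Hundred.U33
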